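import Cfsg.Agent.H170.HL.PZ2
import Cfsg.Agent.H170.HL.RowForm

/-!
# `P(z)` for the linear and unitary groups, uniform part (helper170)

`e r` is the order of `± q` modulo `r`.
-/

set_option autoImplicit false

namespace Cfsg.Agent.H170.HL

open Module Cfsg.Agent.H167.OP

variable {F : Type*} [Field F] {V : Type*} [AddCommGroup V] [Module F V] {K : Type*} [Group K]
  {G : Type*} [Group G]

/-- every nonzero `V_E` has dimension at least `e r` -/
def DimP [Finite K] (ρ : Representation F K V) (e : ℕ → ℕ) : Prop :=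
  ∀ (r : ℕ), r.Prime → Odd r → (r : F) ≠ 0 → ∀ D E : Subgroup K, MaxIn E D →
    (∀ a ∈ D, ∀ b ∈ D, a * b = b * a) → (∀ a ∈ D, a ^ r = 1) → VE ρ E D ≠ ⊥ →
    e r ≤ finrank F (VE ρ E D)

/-- `t`-elements of `L` centralise the `r`-subgroups which they normalise, general form -/
theorem cenH_sub' [Finite K] [FiniteDimensional F V] (ρ : Representation F K V)
    (hρ : Function.Injective ρ) {t : ℕ} (ht : t.Prime) (L : Subgroup K)
    (hb : finrank F (CV ρ L) < 2 * t - 1) (f : K →* G)
    (hker : ∀ k, f k = 1 → ∀ x, k * x = x * k) (hbeta : BetaP ρ t)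
    (hab : ∀ r : ℕ, r.Prime → r ≠ t → r ∣ Nat.card (L.map f) → Odd r ∧ (r : F) ≠ 0 ∧
      ∀ (y : K) (D E : Subgroup K), MinD r t y D → (∀ a ∈ D, ∀ b ∈ D, a * b = b * a) →
        MaxIn E D → E ≠ D → VE ρ E D ≠ ⊥ → finrank F (CV ρ D) ≤ finrank F (CV ρ L) → False) :
    CenH t L := by
  classical
  intro y hy r hrp hrt R hR hn
  by_cases hd : r ∣ Nat.card (L.map f)
  · obtain ⟨hodd, hrF, hfin⟩ := hab r hrp hrt hd
    by_contra hc
    have hrf : Fact r.Prime := ⟨hrp⟩
    let B : Subgroup K := R.map L.subtype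
    have hB : ∀ d ∈ B, ∃ k : ℕ, d ^ r ^ k = 1 := by
      rintro _ ⟨x, hx, rfl⟩
      obtain ⟨k, hk⟩ := hR ⟨x, hx⟩
      exact ⟨k, congrArg (fun z : R => ((z : L) : K)) hk⟩
    have hy' : ∃ k : ℕ, (y : K) ^ t ^ k = 1 := by
      obtain ⟨k, hk⟩ := hy
      exact ⟨k, congrArg Subtype.val hk⟩
    have hn' : Nrm (y : K) B := by
      rintro _ ⟨x, hx, rfl⟩
      exact ⟨_, hn x hx, rfl⟩
    have hc' : ¬ Cen (y : K) B := by
      intro h
      apply hc
      intro d hd
      exact Subtype.ext (h d ⟨d, hd, rfl⟩)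
    obtain ⟨D, hDB, hD⟩ := exists_minD hrp ht hrt hB hy' hn' hc'
    have hDL : D ≤ L := hDB.trans (Subgroup.map_subtype_le _)
    have hDb : finrank F (CV ρ D) ≤ finrank F (CV ρ L) := Submodule.finrank_mono (CV_mono ρ hDL)
    by_cases hcomm : ∀ a ∈ D, ∀ b ∈ D, a * b = b * a
    · have hne : ∃ d ∈ D, ρ d ≠ 1 := by
        by_contra hcon
        push Not at hcon
        apply hD.ncen
        intro d hd
        have : d = 1 := hρ (by rw [hcon d hd, map_one])
        rw [this, mul_one, one_mul]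
      obtain ⟨E, hE, hED, hV⟩ := exists_VE ρ hrp hrF (card_ne_zero_of_MinD hD hrF (le_refl D))
        hcomm (fun a ha => hD.pow_eq_one hcomm ha) hne
      exact hfin y D E hD hcomm hE hED hV hDb
    · push Not at hcomm
      have := hbeta r (y : K) D hodd hD hrF hcomm
      omega
  · -- `R` is central
    intro d hdR
    have hfd : f (d : K) = 1 := by
      obtain ⟨k, hk⟩ := hR ⟨d, hdR⟩
      have h1 : (d : K) ^ r ^ k = 1 := congrArg (fun z : R => ((z : L) : K)) hk
      have h2 : f (d : K) ^ r ^ k = 1 := by rw [← map_pow, h1, map_one]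
      have h3 : orderOf (f (d : K)) ∣ r ^ k := orderOf_dvd_of_pow_eq_one h2
      have h4 : orderOf (f (d : K)) ∣ Nat.card (L.map f) :=
        Subgroup.orderOf_dvd_natCard _ ⟨d, d.2, rfl⟩
      have h5 : Nat.Coprime (r ^ k) (Nat.card (L.map f)) :=
        Nat.Coprime.pow_left _ ((Nat.Prime.coprime_iff_not_dvd hrp).mpr hd)
      have h6 : orderOf (f (d : K)) ∣ 1 := by
        rw [← h5]
        exact Nat.dvd_gcd h3 h4
      exact orderOf_eq_one_iff.mp (Nat.dvd_one.mp h6)
    exact Subtype.ext (hker _ hfd _).symm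

/-- the pair generated by conjugates of `z`: from `CenH` -/
theorem isPGroup_pair' [Finite K] {t : ℕ} (ht : t.Prime) (z g : K) (hz : z ^ t = 1) (f : K →* G)
    (hker : ∀ k, f k = 1 → ∀ x, k * x = x * k)
    (hsol : Group.IsSolvable ((Subgroup.closure {z, g * z * g⁻¹}).map f))
    (hC : CenH t (Subgroup.closure {z, g * z * g⁻¹})) :
    IsPGroup t ((Subgroup.closure {z, g * z * g⁻¹}).map f) := by
  classical
  have htf : Fact t.Prime := ⟨ht⟩
  set L : Subgroup K := Subgroup.closure {z, g * z * g⁻¹} with hL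
  -- solvability
  have hsolL : Group.IsSolvable L := by
    let φ : L →* L.map f := (f.comp L.subtype).codRestrict (L.map f) (fun x => ⟨x, x.2, rfl⟩)
    have h1 : φ.ker ≤ Subgroup.center L := by
      intro x hx
      rw [Subgroup.mem_center_iff]
      intro w
      have h2 : f (x : K) = 1 := congrArg Subtype.val (MonoidHom.mem_ker.mp hx)
      exact Subtype.ext (hker _ h2 _).symm
    have h2 : Group.IsSolvable φ.ker := by
      have : ∀ a b : φ.ker, a * b = b * a := by
        intro a b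
        have := Subgroup.mem_center_iff.mp (h1 a.2) b
        exact Subtype.ext this.symm
      exact Group.isSolvable_of_comm this
    exact Group.isSolvable_of_ker_le_range (G' := φ.ker) φ.ker.subtype φ (by rw [Subgroup.range_subtype])
  have hgen : Subgroup.closure {x : L | ∃ k : ℕ, x ^ t ^ k = 1} = ⊤ := by
    rw [eq_top_iff, ← Subgroup.closure_closure_coe_preimage (k := ({z, g * z * g⁻¹} : Set K))]
    apply Subgroup.closure_mono
    rintro ⟨x, hx⟩ hxm
    refine ⟨1, Subtype.ext ?_⟩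
    rw [pow_one]
    show x ^ t = 1
    rcases hxm with h | h
    · have h' : x = z := h
      rw [h', hz]
    · have h' : x = g * z * g⁻¹ := h
      rw [h', conj_pow, hz, mul_one, mul_inv_cancel]
  exact (isPGroup_of_cenH hsolL hC hgen).map f

/-- the index of a maximal subgroup `E ≠ D` of an elementary abelian group is the prime -/
theorem relIndex_eq [Finite K] {D E : Subgroup K} {s : ℕ} (hs : s.Prime)
    (hab : ∀ a ∈ D, ∀ b ∈ D, a * b = b * a) (hexp : ∀ a ∈ D, a ^ s = 1) (hE : MaxIn E D)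
    (hne : E ≠ D) : E.relIndex D = s := by
  have hsf : Fact s.Prime := ⟨hs⟩
  have h1 := relIndex_le hs hab hexp hE
  have h2 : IsPGroup s D := fun x => ⟨1, Subtype.ext (by simpa using hexp x x.2)⟩
  obtain ⟨n, hn⟩ := IsPGroup.iff_card.mp h2
  have h3 : E.relIndex D ∣ s ^ n := by
    rw [← hn]
    exact Subgroup.index_dvd_card _
  obtain ⟨k, hk, hk'⟩ := (Nat.dvd_prime_pow hs).mp h3
  have h4 : E.relIndex D ≠ 1 := by
    intro h
    rw [Subgroup.relIndex_eq_one] at h
    exact hne (le_antisymm hE.1 h)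
  have hk1 : k ≠ 0 := by
    rintro rfl
    exact h4 (by rw [hk', pow_zero])
  have hk2 : ¬ 2 ≤ k := by
    intro h
    have h5 : s ^ 2 ≤ s ^ k := Nat.pow_le_pow_right hs.pos h
    have h6 := hs.one_lt
    rw [hk'] at h1
    nlinarith
  have : k = 1 := by omega
  rw [hk', this, pow_one]

/-- **uniform row theorem for the linear and unitary groups** -/
theorem exists_pz_unif [Finite K] [Finite G] [FiniteDimensional F V]
    (φ : K →* G) (hφ : Function.Surjective φ) (hker : ∀ k, φ k = 1 → ∀ x, k * x = x * k)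
    (ρ : Representation F K V) (hρ : Function.Injective ρ)
    (hbeta : ∀ t : ℕ, t.Prime → Odd t → (t : F) ≠ 0 → BetaP ρ t)
    (e : ℕ → ℕ) (hdim : DimP ρ e)
    (he : ∀ r : ℕ, r.Prime → Odd r → (r : F) ≠ 0 → 0 < e r ∧ (2 * e r < r ∨ e r = r - 1))
    (π : Set ℕ) (h2 : 2 ∉ π) (hp : ∀ r ∈ π, r.Prime → (r : F) ≠ 0)
    (hsm : ∀ t : ℕ, t.Prime → Odd t → (t : F) ≠ 0 → t ∣ Nat.card G →
      ∃ z : K, φ z ≠ 1 ∧ z ^ t = 1 ∧ rk ρ z ≤ max (e t) 2)
    (hne : ∃ r ∈ π, r.Prime ∧ r ∣ Nat.card G) :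
    ∃ t ∈ π, t.Prime ∧ t ∣ Nat.card G ∧ ∃ z : G, z ≠ 1 ∧ z ^ t = 1 ∧ PZ t π z := by
  classical
  have hodd : ∀ r ∈ π, r.Prime → Odd r := by
    intro r hr hrp
    rcases hrp.eq_two_or_odd' with h | h
    · exact absurd (h ▸ hr) h2
    · exact h
  have h3 : ∀ r ∈ π, r.Prime → 3 ≤ r := by
    intro r hr hrp
    have h4 := hodd r hr hrp
    have h5 := hrp.two_le
    rcases Nat.lt_or_ge r 3 with h | h
    · have : r = 2 := by omega
      rw [this] at h4
      exact absurd h4 (by decide)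
    · exact h
  have h5' : ∀ r ∈ π, r.Prime → r ≠ 3 → 5 ≤ r := by
    intro r hr hrp hr3
    have h4 := h3 r hr hrp
    rcases Nat.lt_or_ge r 5 with h | h
    · have : r = 4 := by omega
      rw [this] at hrp
      exact absurd hrp (by decide)
    · exact h
  -- the common final step
  have final : ∀ t ∈ π, t.Prime → t ∣ Nat.card G → ∀ z : K, φ z ≠ 1 → z ^ t = 1 →
      2 * rk ρ z < 2 * t - 1 →
      (∀ r ∈ π, r.Prime → r ≠ t → r ∣ Nat.card G → ∀ (y : K) (D E : Subgroup K), MinD r t y D →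
        (∀ a ∈ D, ∀ b ∈ D, a * b = b * a) → MaxIn E D → E ≠ D → VE ρ E D ≠ ⊥ →
        finrank F (CV ρ D) ≤ 2 * rk ρ z → False) →
      ∃ t ∈ π, t.Prime ∧ t ∣ Nat.card G ∧ ∃ z : G, z ≠ 1 ∧ z ^ t = 1 ∧ PZ t π z := by
    intro t htπ ht htd z hz1 hzt hrk hfin
    refine ⟨t, htπ, ht, htd, φ z, hz1, by rw [← map_pow, hzt, map_one], ?_⟩
    intro g hsol hpi
    obtain ⟨g, rfl⟩ := hφ g
    have hmap : (Subgroup.closure {z, g * z * g⁻¹}).map φ =
        Subgroup.closure {φ z, φ g * φ z * (φ g)⁻¹} := by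
      rw [MonoidHom.map_closure, Set.image_pair, map_mul, map_mul, map_inv]
    rw [← hmap] at hsol hpi ⊢
    have hb := finrank_CV_pair ρ g z
    refine isPGroup_pair' ht z g hzt φ hker hsol ?_
    refine cenH_sub' ρ hρ ht _ (lt_of_le_of_lt hb hrk) φ hker
      (hbeta t ht (hodd t htπ ht) (hp t htπ ht)) ?_
    intro r hr hrt hrd
    have hrπ := hpi r hr hrd
    refine ⟨hodd r hrπ hr, hp r hrπ hr, ?_⟩
    intro y D E hD hab hE hED hV hle
    exact hfin r hrπ hr hrt (hrd.trans (Subgroup.card_subgroup_dvd_card _)) y D E hD hab hE hED hV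
      (hle.trans hb)
  -- dimension bounds
  have hVE : ∀ r ∈ π, r.Prime → ∀ (t : ℕ) (y : K) (D E : Subgroup K), MinD r t y D →
      (∀ a ∈ D, ∀ b ∈ D, a * b = b * a) → MaxIn E D → VE ρ E D ≠ ⊥ →
      e r ≤ finrank F (VE ρ E D) ∧ finrank F (VE ρ E D) ≤ finrank F (CV ρ D) ∧
      (¬ Nrm y E → t * finrank F (VE ρ E D) ≤ finrank F (CV ρ D)) := by
    intro r hrπ hr t y D E hD hab hE hV
    have hrF := hp r hrπ hr
    refine ⟨hdim r hr (hodd r hrπ hr) hrF D E hE hab (fun a ha => hD.pow_eq_one hab ha) hV,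
      Submodule.finrank_mono (VE_le_CV ρ (card_ne_zero_of_MinD hD hrF (le_refl D))),
      fun hn => mul_finrank_VE_le ρ hD hrF hab hE hn⟩
  by_cases hA : ∃ r ∈ π, r.Prime ∧ r ∣ Nat.card G ∧ 5 ≤ r ∧ 2 * e r < r
  · -- case A
    let π' : Set ℕ := {r | r ∈ π ∧ 5 ≤ r ∧ 2 * e r < r}
    obtain ⟨t, ⟨htπ, ht5, hte⟩, ht, htd, hmax⟩ := exists_max_prime (G := G) π' (by
      obtain ⟨r, hr, hrp, hrd, hr5, hre⟩ := hA
      exact ⟨r, ⟨hr, hr5, hre⟩, hrp, hrd⟩)
    obtain ⟨z, hz1, hzt, hzr⟩ := hsm t ht (hodd t htπ ht) (hp t htπ ht) htd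
    have hrk : 2 * rk ρ z < t := by
      rcases le_total (e t) 2 with h | h
      · rw [max_eq_right h] at hzr
        omega
      · rw [max_eq_left h] at hzr
        omega
    refine final t htπ ht htd z hz1 hzt (by omega) ?_
    intro r hrπ hr hrt hrd y D E hD hab hE hED hV hle
    obtain ⟨hb1, hb2, hb3⟩ := hVE r hrπ hr t y D E hD hab hE hV
    have hpos : 0 < finrank F (VE ρ E D) :=
      lt_of_lt_of_le (he r hr (hodd r hrπ hr) (hp r hrπ hr)).1 hb1
    by_cases hn : Nrm y E
    · -- then `r > t`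
      have hrt' : t < r := by
        rcases lt_or_gt_of_ne hrt with h | h
        · exact (hD.not_nrm_max h hab hE hED hn).elim
        · exact h
      have h4 : ¬ 2 * e r < r := by
        intro h4
        have := hmax r ⟨hrπ, by omega, h4⟩ hr hrd
        omega
      have h5 := (he r hr (hodd r hrπ hr) (hp r hrπ hr)).2.resolve_left h4
      omega
    · have h4 := hb3 hn
      have h5 : t * 1 ≤ t * finrank F (VE ρ E D) := Nat.mul_le_mul_left t hpos
      omega
  · push Not at hA
    have hA' : ∀ r ∈ π, r.Prime → r ∣ Nat.card G → r ≠ 3 → e r = r - 1 := by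
      intro r hrπ hr hrd hr3
      have h4 := hA r hrπ hr hrd (h5' r hrπ hr hr3)
      exact (he r hr (hodd r hrπ hr) (hp r hrπ hr)).2.resolve_left (by omega)
    by_cases hB : 3 ∈ π ∧ 3 ∣ Nat.card G ∧ e 3 = 1
    · -- case B2
      obtain ⟨h3π, h3d, h3e⟩ := hB
      have h3p : Nat.Prime 3 := Nat.prime_three
      obtain ⟨z, hz1, hzt, hzr⟩ := hsm 3 h3p (by decide) (hp 3 h3π h3p) h3d
      rw [h3e] at hzr
      have hzr' : rk ρ z ≤ 2 := by simpa using hzr
      refine final 3 h3π h3p h3d z hz1 hzt (by omega) ?_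
      intro r hrπ hr hrt hrd y D E hD hab hE hED hV hle
      obtain ⟨hb1, hb2, hb3⟩ := hVE r hrπ hr 3 y D E hD hab hE hV
      have hr5 := h5' r hrπ hr hrt
      rw [hA' r hrπ hr hrd hrt] at hb1
      by_cases hn : Nrm y E
      · have hr5' : r = 5 := by omega
        have h4 := relIndex_eq hr hab (fun a ha => hD.pow_eq_one hab ha) hE hED
        have h5 := hD.relIndex_modEq hn (fun a ha b hb => by
          rw [hab a ha b hb, mul_inv_cancel_right, mul_inv_cancel]
          exact E.one_mem)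
        rw [h4, hr5'] at h5
        exact absurd h5 (by decide)
      · have := hb3 hn
        omega
    · -- case B1
      obtain ⟨t, htπ, ht, htd, hmax⟩ := exists_max_prime (G := G) π hne
      obtain ⟨z, hz1, hzt, hzr⟩ := hsm t ht (hodd t htπ ht) (hp t htπ ht) htd
      have ht3 := h3 t htπ ht
      have hrk : rk ρ z ≤ t - 1 := by
        rcases (he t ht (hodd t htπ ht) (hp t htπ ht)).2 with h | h
        · refine hzr.trans (max_le (by omega) (by omega))
        · rw [h] at hzr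
          refine hzr.trans (max_le le_rfl (by omega))
      refine final t htπ ht htd z hz1 hzt (by omega) ?_
      intro r hrπ hr hrt hrd y D E hD hab hE hED hV hle
      obtain ⟨hb1, hb2, hb3⟩ := hVE r hrπ hr t y D E hD hab hE hV
      have hlt : r < t := lt_of_le_of_ne (hmax r hrπ hr hrd) hrt
      have hn : ¬ Nrm y E := fun hn => hD.not_nrm_max hlt hab hE hED hn
      have h4 := hb3 hn
      have her : 2 ≤ e r := by
        by_cases hr3 : r = 3
        · have h6 := (he r hr (hodd r hrπ hr) (hp r hrπ hr)).1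
          have h7 : e r ≠ 1 := by
            intro h7
            rw [hr3] at h7 hrπ hrd
            exact hB ⟨hrπ, hrd, h7⟩
          omega
        · have := hA' r hrπ hr hrd hr3
          have := h5' r hrπ hr hr3
          omega
      have h5 : t * 2 ≤ t * finrank F (VE ρ E D) := Nat.mul_le_mul_left t (her.trans hb1)
      omega

end Cfsg.Agent.H170.HL
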